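-- Team project OHYP (S5992), cut of [BLK] (helper59): package [MINUS] (helper79).
import Mathlib
import Cfsg.Agent.Lib.Helper59.OHyp.BlkDefs

set_option autoImplicit false

namespace Cfsg.Agent.Lib.Helper79.OHyp

open Cfsg.Agent.Lib.Helper23.OHyp Cfsg.Agent.Lib.Helper59.OHyp

universe u

/-- The arithmetic core of [MINUS]: if `q` has order `2 (j + 1)` modulo the odd prime `r`, then
`q ^ (2 j + 1) + q ^ (j + 1) - q ^ j` is not congruent to `1` modulo `r`. -/
theorem minus_arith (q r j : ℕ) (hr : r.Prime) (hr2 : r ≠ 2) (hq : 1 ≤ q)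
    (hi : orderOf ((q : ℕ) : ZMod r) = 2 * (j + 1))
    (hmod : q ^ (2 * j + 1) + q ^ (j + 1) - q ^ j ≡ 1 [MOD r]) : False := by
  have : Fact r.Prime := ⟨hr⟩
  have hle : q ^ j ≤ q ^ (2 * j + 1) + q ^ (j + 1) :=
    le_trans (Nat.pow_le_pow_right hq (Nat.le_succ j)) (Nat.le_add_left _ _)
  have h1 := (ZMod.natCast_eq_natCast_iff _ _ r).mpr hmod
  rw [Nat.cast_sub hle] at h1
  push_cast at h1
  generalize ((q : ℕ) : ZMod r) = c at hi h1
  have h2 : (c ^ (j + 1) - 1) * (c ^ j + 1) = 0 := by
    linear_combination h1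
  rcases mul_eq_zero.mp h2 with h3 | h3
  · have h4 : c ^ (j + 1) = 1 := by linear_combination h3
    have h5 := orderOf_dvd_of_pow_eq_one h4
    rw [hi] at h5
    have := Nat.le_of_dvd (Nat.succ_pos j) h5
    omega
  · have h4 : c ^ j = -1 := by linear_combination h3
    have h5 : c ^ (2 * j) = 1 := by
      rw [mul_comm, pow_mul, h4]; norm_num
    have h6 := orderOf_dvd_of_pow_eq_one h5
    rw [hi] at h6
    rcases Nat.eq_zero_or_pos j with hj | hj
    · subst hj
      have h7 : ((2 : ℕ) : ZMod r) = 0 := by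
        push_cast
        have : (1 : ZMod r) = -1 := by simpa using h4
        linear_combination this
      have h8 := (ZMod.natCast_eq_zero_iff 2 r).mp h7
      have h9 := Nat.le_of_dvd (by norm_num) h8
      have := hr.two_le
      omega
    · have := Nat.le_of_dvd (by omega) h6
      omega

/-- [MINUS] from [SINGCNT]. -/
theorem pkgMinus_of (hS : PkgSingCnt.{u}) : PkgMinus.{u} := by
  intro F _ _ ι _ _ Q r x hstd D hmin hnofix hnd heven hfin hplus
  classical
  have : Fact r.Prime := ⟨hstd.prime⟩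
  have hDpos : 0 < Module.finrank F D := by
    rcases Nat.eq_zero_or_pos (Module.finrank F D) with h0 | h0
    · exact absurd (Submodule.finrank_eq_zero.mp h0) hmin.2.1
    · exact h0
  obtain ⟨k, hk⟩ := heven
  obtain ⟨j, rfl⟩ : ∃ j, k = j + 1 := ⟨k - 1, by omega⟩
  have hi : ordI (Fintype.card F) r = 2 * (j + 1) := by omega
  have hcnt := hS F ι Q hstd.nondeg hstd.two D j hnd hplus (by omega)
  have hQ0 : Q 0 = 0 := by
    have := hstd.nondeg.smul 0 0
    simpa using this
  let f : Function.End {v : ι → F // v ∈ D ∧ Q v = 0} := fun v =>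
    ⟨x.mulVec v.1, hmin.1 ⟨v.1, v.2.1, by simp [Matrix.toLin'_apply]⟩, by
      rw [hstd.isom]; exact v.2.2⟩
  have hpow : ∀ (n : ℕ) (v : {v : ι → F // v ∈ D ∧ Q v = 0}),
      ((f ^ n) v).1 = (x ^ n).mulVec v.1 := by
    intro n
    induction n with
    | zero => intro v; rw [pow_zero, pow_zero, Matrix.one_mulVec]; rfl
    | succ n ih =>
      intro v
      rw [pow_succ, pow_succ]
      show ((f ^ n) (f v)).1 = _
      rw [ih]
      show (x ^ n).mulVec (x.mulVec v.1) = _
      rw [Matrix.mulVec_mulVec]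
  have hf : f ^ r ^ 1 = 1 := by
    funext v
    apply Subtype.ext
    rw [pow_one, hpow, hstd.pow, Matrix.one_mulVec]
    rfl
  have hmod := Equiv.Perm.card_fixedPoints_modEq (p := r) (n := 1) hf
  have hfix : Fintype.card (Function.fixedPoints f) = 1 := by
    rw [Fintype.card_eq_one_iff]
    refine ⟨⟨⟨0, D.zero_mem, hQ0⟩, ?_⟩, ?_⟩
    · show f _ = _
      apply Subtype.ext
      show x.mulVec 0 = 0
      simp
    · rintro ⟨b, hb⟩
      apply Subtype.ext
      apply Subtype.ext
      exact hnofix b.1 b.2.1 (congrArg Subtype.val hb)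
  rw [hfix, Fintype.card_eq_nat_card, hcnt] at hmod
  exact minus_arith (Fintype.card F) r j hstd.prime hstd.ne_two Fintype.card_pos hi hmod

end Cfsg.Agent.Lib.Helper79.OHyp
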